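import Cfsg.Agent.Lib.CharSmallPerm.Basic
import Cfsg.Prelude.Def_Classical

/-!
The Steinberg character of `PΩ⁺₄(2)`: it acts as `S₃` on a triple of nonsingular vectors.
-/

set_option autoImplicit false

namespace Cfsg.Agent.Lib.Classical.BN.PlusFourTwo

open Cfsg Cfsg.Agent.Lib.Char
open scoped commutatorElement

/-- A finite group mapping onto `S₃` with a `3`-group as kernel has a character like the Steinberg one. -/
theorem exists_char {G : Type*} [Group G] [Finite G] (f : G →* Equiv.Perm (Fin 3))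
    (hf : Function.Surjective f) (hk : IsPGroup 3 f.ker) :
    ∃ χ : G → ℂ, IsIrrCharacter G χ ∧
      ∀ P : Sylow 2 G, χ 1 = Nat.card P ∧ ∀ x : G, x ∈ P → x ≠ 1 → χ x = 0 := by
  classical
  have := Fintype.ofFinite G
  letI : MulAction G (Fin 3) := MulAction.compHom (Fin 3) f
  have hsmul : ∀ (g : G) (a : Fin 3), g • a = f g a := fun _ _ => rfl
  let F : Equiv.Perm (Fin 3) → ℤ := fun π => ((Finset.univ.filter fun a => π a = a).card : ℤ) - 1
  have hfp : ∀ g : G, (CharSmallPerm.fp (Fin 3) g : ℤ) - 1 = F (f g) := fun g => by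
    simp only [CharSmallPerm.fp, hsmul, F]
  have hker : ∀ π, (Finset.univ.filter fun g : G => f g = π).card = Nat.card f.ker := by
    intro π
    obtain ⟨a, rfl⟩ := hf π
    rw [Nat.card_eq_fintype_card, ← Finset.card_univ]
    refine Finset.card_bij (fun g hg => ⟨a⁻¹ * g, ?_⟩) (fun _ _ => Finset.mem_univ _) ?_ ?_
    · simp only [Finset.mem_filter] at hg
      rw [MonoidHom.mem_ker, map_mul, map_inv, hg.2, inv_mul_cancel]
    · intro g _ g' _ h
      exact mul_left_cancel (congrArg Subtype.val h)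
    · intro k _
      exact ⟨a * k.1, by simp [show f k.1 = 1 from k.2], Subtype.ext (inv_mul_cancel_left _ _)⟩
  have hcard : Nat.card G = 6 * Nat.card f.ker := by
    rw [← f.ker.card_mul_index, Subgroup.index_ker, MonoidHom.range_eq_top.2 hf, Subgroup.card_top,
      Nat.card_perm, Nat.card_fin, mul_comm]
    rfl
  have hsum : ∑ g : G, ((CharSmallPerm.fp (Fin 3) g : ℤ) - 1) * ((CharSmallPerm.fp (Fin 3) g : ℤ) - 1) =
      Nat.card G := by
    simp only [hfp]
    rw [← Finset.sum_fiberwise Finset.univ (fun g => f g)]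
    have h2 : ∀ π, (∑ g ∈ Finset.univ.filter (fun g : G => f g = π), F (f g) * F (f g)) =
        (Nat.card f.ker : ℤ) * (F π * F π) := by
      intro π
      rw [Finset.sum_congr rfl (fun g hg => by rw [(Finset.mem_filter.1 hg).2]), Finset.sum_const, hker,
        nsmul_eq_mul]
    rw [Finset.sum_congr rfl fun π _ => h2 π, ← Finset.mul_sum, hcard]
    rw [show (∑ π : Equiv.Perm (Fin 3), F π * F π) = 6 by decide]
    push_cast; ring
  refine ⟨fun g => (CharSmallPerm.fp (Fin 3) g : ℂ) - 1,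
    CharSmallPerm.isIrr_of_generalized ⟨_, _, CharSmallPerm.isCharacter_fp (α := Fin 3), isCharacter_one, rfl⟩
      ?_ (d := 2) ?_ two_pos, fun P => ?_⟩
  · have hN : (Nat.card G : ℂ) ≠ 0 := card_ne_zero_complex G
    have h3 : ∑ g : G, ((CharSmallPerm.fp (Fin 3) g : ℂ) - 1) * ((CharSmallPerm.fp (Fin 3) g : ℂ) - 1) =
        Nat.card G := by exact_mod_cast hsum
    simp only [classInner, map_sub, map_natCast, map_one, h3]
    field_simp
  · simp [CharSmallPerm.fp_one]
    norm_num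
  haveI : Fact (Nat.Prime 2) := ⟨Nat.prime_two⟩
  have hodd : ¬ 2 ∣ Nat.card f.ker := fun h => by
    haveI : Fact (Nat.Prime 3) := ⟨Nat.prime_three⟩
    obtain ⟨k, hk'⟩ := (IsPGroup.iff_card (p := 3) (G := f.ker)).1 hk
    rw [hk'] at h
    exact absurd (Nat.prime_two.dvd_of_dvd_pow h) (by decide)
  have hP : Nat.card P = 2 := by
    rw [P.card_eq_multiplicity, hcard]
    have : (6 * Nat.card f.ker).factorization 2 = 1 := by
      rw [Nat.factorization_mul (by norm_num) Nat.card_pos.ne', Finsupp.add_apply,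
        Nat.factorization_eq_zero_of_not_dvd hodd, add_zero, show (6 : ℕ) = 2 * 3 from rfl,
        Nat.factorization_mul (by norm_num) (by norm_num), Finsupp.add_apply,
        Nat.prime_two.factorization_self, Nat.factorization_eq_zero_of_not_dvd (by decide)]
    rw [this, pow_one]
  refine ⟨?_, fun x hx hx1 => ?_⟩
  · show (CharSmallPerm.fp (Fin 3) (1 : G) : ℂ) - 1 = _
    rw [CharSmallPerm.fp_one, hP, Fintype.card_fin]
    norm_num
  have hx2 : x ^ 2 = 1 := by
    have := pow_card_eq_one' (G := P) (x := ⟨x, hx⟩)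
    rw [hP] at this
    exact congrArg Subtype.val this
  have hfx : f x ≠ 1 := fun h => by
    obtain ⟨k, hk'⟩ := hk ⟨x, h⟩
    have h3 : x ^ 3 ^ k = 1 := congrArg Subtype.val hk'
    have hg : x ^ Nat.gcd 2 (3 ^ k) = 1 := pow_gcd_eq_one.2 ⟨hx2, h3⟩
    rw [show Nat.gcd 2 (3 ^ k) = 1 from (Nat.Coprime.pow_right k (by decide : Nat.Coprime 2 3)), pow_one] at hg
    exact hx1 hg
  have key : ∀ π : Equiv.Perm (Fin 3), π * π = 1 → π ≠ 1 → F π = 0 := by decide
  have := key (f x) (by rw [← map_mul, ← pow_two, hx2, map_one]) hfx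
  rw [← hfp] at this
  show (CharSmallPerm.fp (Fin 3) x : ℂ) - 1 = 0
  exact_mod_cast this

/-- The form over the prime field, as a truth table. -/
def qz (v : Fin 2 ⊕ Fin 2 → ZMod 2) : ZMod 2 := ∑ i, v (.inl i) * v (.inr i)

/-- The six nonsingular vectors, as two triples. -/
def vecZ : Fin 6 → Fin 2 ⊕ Fin 2 → ZMod 2 :=
  ![Sum.elim ![1, 0] ![1, 0], Sum.elim ![1, 1] ![0, 1], Sum.elim ![0, 1] ![1, 1],
    Sum.elim ![0, 1] ![0, 1], Sum.elim ![1, 1] ![1, 0], Sum.elim ![1, 0] ![1, 1]]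

/-- The triple of an index. -/
def blk (i : Fin 6) : Bool := decide (3 ≤ i.val)

theorem vecZ_surj : ∀ w, qz w = 1 → ∃ i, vecZ i = w := by decide

theorem vecZ_inj : Function.Injective vecZ := by
  have : ∀ i j, vecZ i = vecZ j → i = j := by decide
  exact fun i j => this i j

theorem vecZ_q : ∀ i, qz (vecZ i) = 1 := by decide

theorem vecZ_adj : ∀ i j, qz (vecZ i + vecZ j) = 1 ↔ (i ≠ j ∧ blk i = blk j) := by decide

theorem vecZ_span : ∀ c : Fin 2 ⊕ Fin 2, ∃ i j, (Pi.single c 1 : Fin 2 ⊕ Fin 2 → ZMod 2) = vecZ i + vecZ j := by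
  decide

/-- The reflection in a vector, as a matrix. -/
def reflZ (v : Fin 2 ⊕ Fin 2 → ZMod 2) : Matrix (Fin 2 ⊕ Fin 2) (Fin 2 ⊕ Fin 2) (ZMod 2) :=
  Matrix.of fun c d => (if c = d then 1 else 0) + v c * v d.swap

/-- The exchange of the two hyperbolic planes, as a matrix. -/
def swapZ : Matrix (Fin 2 ⊕ Fin 2) (Fin 2 ⊕ Fin 2) (ZMod 2) :=
  Matrix.of fun c d => if c = Sum.map (fun i => 1 - i) (fun i => 1 - i) d then 1 else 0

set_option synthInstance.maxSize 2000 in
theorem six_cases : ∀ a b c : Fin 6, (3 ≤ a ∧ 3 ≤ b ∧ 3 ≤ c) → (a ≠ b ∧ a ≠ c ∧ b ≠ c) →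
    (a = 3 ∧ b = 4 ∧ c = 5) ∨ (a = 4 ∧ b = 5 ∧ c = 3) ∨ (a = 5 ∧ b = 3 ∧ c = 4) ∨
    (a = 4 ∧ b = 3 ∧ c = 5) ∨ (a = 5 ∧ b = 4 ∧ c = 3) ∨ (a = 3 ∧ b = 5 ∧ c = 4) := by decide

theorem sign_swap_ne {π : Equiv.Perm (Fin 6)} {x y : Fin 6} (hxy : x ≠ y) (h : π = Equiv.swap x y) :
    Equiv.Perm.sign π ≠ 1 := by
  rw [h, Equiv.Perm.sign_swap hxy]; decide

theorem perm_six (π : Equiv.Perm (Fin 6)) (h0 : π 0 = 0) (h1 : π 1 = 1) (h2 : π 2 = 2)
    (hs : Equiv.Perm.sign π = 1) : π * π * π = 1 := by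
  have hmap : ∀ i : Fin 6, 3 ≤ i → 3 ≤ π i := by
    intro i hi
    by_contra h
    have : π i = 0 ∨ π i = 1 ∨ π i = 2 := by revert h; generalize π i = j; revert j; decide
    rcases this with e | e | e
    · rw [π.injective (e.trans h0.symm)] at hi; exact absurd hi (by decide)
    · rw [π.injective (e.trans h1.symm)] at hi; exact absurd hi (by decide)
    · rw [π.injective (e.trans h2.symm)] at hi; exact absurd hi (by decide)
  rcases six_cases (π 3) (π 4) (π 5) ⟨hmap 3 le_rfl, hmap 4 (by decide), hmap 5 (by decide)⟩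
    ⟨π.injective.ne (by decide), π.injective.ne (by decide), π.injective.ne (by decide)⟩ with
    ⟨a, b, c⟩ | ⟨a, b, c⟩ | ⟨a, b, c⟩ | ⟨a, b, c⟩ | ⟨a, b, c⟩ | ⟨a, b, c⟩
  · refine Equiv.ext fun i => ?_; fin_cases i <;> simp [h0, h1, h2, a, b, c]
  · refine Equiv.ext fun i => ?_; fin_cases i <;> simp [h0, h1, h2, a, b, c]
  · refine Equiv.ext fun i => ?_; fin_cases i <;> simp [h0, h1, h2, a, b, c]
  all_goals exfalso
  · exact sign_swap_ne (x := 3) (y := 4) (by decide) (Equiv.ext fun i => by fin_cases i <;> simp [h0, h1, h2, a, b, c, Equiv.swap_apply_def]) hs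
  · exact sign_swap_ne (x := 3) (y := 5) (by decide) (Equiv.ext fun i => by fin_cases i <;> simp [h0, h1, h2, a, b, c, Equiv.swap_apply_def]) hs
  · exact sign_swap_ne (x := 4) (y := 5) (by decide) (Equiv.ext fun i => by fin_cases i <;> simp [h0, h1, h2, a, b, c, Equiv.swap_apply_def]) hs

/-- An index in the first triple. -/
def i1 (i : Fin 3) : Fin 6 := ⟨i.val, by omega⟩

/-- An index in the second triple. -/
def i2 (i : Fin 3) : Fin 6 := ⟨i.val + 3, by omega⟩

theorem refl_act : ∀ a b c : Fin 3, a ≠ b → a ≠ c → b ≠ c →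
    ((reflZ (vecZ (i1 a))).mulVec (vecZ (i1 a)) = vecZ (i1 a) ∧
    (reflZ (vecZ (i1 a))).mulVec (vecZ (i1 b)) = vecZ (i1 c)) ∧
    ∀ i : Fin 3, (reflZ (vecZ (i1 a))).mulVec (vecZ (i2 i)) = vecZ (i2 i) := by decide

theorem refl_iso : ∀ a : Fin 6, (∀ w, qz ((reflZ (vecZ a)).mulVec w) = qz w) ∧
    reflZ (vecZ a) * reflZ (vecZ a) = 1 := by decide

theorem swap_iso : (∀ w, qz (swapZ.mulVec w) = qz w) ∧ swapZ * swapZ = 1 := by decide

theorem swap_act : ∀ i : Fin 3, swapZ.mulVec (vecZ (i1 i)) = vecZ (i2 i) ∧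
    swapZ.mulVec (vecZ (i2 i)) = vecZ (i1 i) := by decide

theorem three_cases : ∀ a b c i : Fin 3, a ≠ b → a ≠ c → b ≠ c → i = a ∨ i = b ∨ i = c := by decide

theorem third : ∀ b c : Fin 3, b ≠ c → ∃ a, a ≠ b ∧ a ≠ c := by decide

theorem center_three : ∀ π : Equiv.Perm (Fin 3), (∀ ρ, ρ * π = π * ρ) → π = 1 := by decide

variable {F : Type*} [Field F] [Fintype F] (hF : Fintype.card F = 2)
include hF

theorem exists_embed : ∃ ι : ZMod 2 →+* F, Function.Bijective ι := by
  classical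
  have h2 : (2 : F) = 0 := by
    have := FiniteField.cast_card_eq_zero F
    rwa [hF] at this
  have : CharP F 2 := CharTwo.of_one_ne_zero_of_two_eq_zero one_ne_zero h2
  refine ⟨ZMod.castHom (dvd_refl 2) F, ?_⟩
  rw [Fintype.bijective_iff_injective_and_card]
  exact ⟨RingHom.injective _, by rw [ZMod.card, hF]⟩

theorem steinberg :
    ∃ χ : Cfsg.POmega F (Cfsg.quadFormPlus 2 F) → ℂ,
      Cfsg.IsIrrCharacter (Cfsg.POmega F (Cfsg.quadFormPlus 2 F)) χ ∧
      ∀ S : Sylow 2 (Cfsg.POmega F (Cfsg.quadFormPlus 2 F)), χ 1 = Nat.card S ∧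
        ∀ x : Cfsg.POmega F (Cfsg.quadFormPlus 2 F), x ∈ S → x ≠ 1 → χ x = 0 := by
  classical
  obtain ⟨ι, hι⟩ := exists_embed hF
  set Q := Cfsg.quadFormPlus 2 F with hQ
  have hQι : ∀ w, Q (fun c => ι (w c)) = ι (qz w) := fun w => by
    simp [hQ, Cfsg.quadFormPlus, qz, map_sum, map_mul]
  have hlift : ∀ v : Fin 2 ⊕ Fin 2 → F, ∃ w : Fin 2 ⊕ Fin 2 → ZMod 2, (fun c => ι (w c)) = v := fun v => by
    choose w hw using fun c => hι.2 (v c)
    exact ⟨w, funext hw⟩
  let vec : Fin 6 → {v : Fin 2 ⊕ Fin 2 → F // Q v = 1} := fun i =>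
    ⟨fun c => ι (vecZ i c), by rw [hQι, vecZ_q, map_one]⟩
  have hvec : Function.Bijective vec := by
    refine ⟨fun i j h => vecZ_inj (funext fun c => hι.1 (congrFun (congrArg Subtype.val h) c)), fun v => ?_⟩
    obtain ⟨w, hw⟩ := hlift v.1
    obtain ⟨i, hi⟩ := vecZ_surj w (hι.1 (by rw [← hQι, hw, map_one]; exact v.2))
    exact ⟨i, Subtype.ext (by show (fun c => ι (vecZ i c)) = v.1; rw [hi, hw])⟩
  let e := Equiv.ofBijective vec hvec
  letI : MulAction (isometryGroup F Q) {v : Fin 2 ⊕ Fin 2 → F // Q v = 1} :=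
    { smul := fun g v => ⟨g.1.1.mulVec v.1, (g.2 v.1 0).trans v.2⟩
      one_smul := fun v => Subtype.ext (Matrix.one_mulVec v.1)
      mul_smul := fun g h v => Subtype.ext (Matrix.mulVec_mulVec v.1 g.1.1 h.1.1).symm }
  let act : isometryGroup F Q →* Equiv.Perm (Fin 6) :=
    (e.symm.permCongrHom.toMonoidHom).comp (MulAction.toPermHom _ _)
  have hact : ∀ g i, (vec (act g i)).1 = g.1.1.mulVec (vec i).1 := fun g i => by
    show (e (e.symm (g • e i))).1 = _
    rw [e.apply_symm_apply]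
    rfl
  have hadd : ∀ i j, Q ((vec i).1 + (vec j).1) = 1 ↔ (i ≠ j ∧ blk i = blk j) := fun i j => by
    rw [show (vec i).1 + (vec j).1 = fun c => ι ((vecZ i + vecZ j) c) from funext fun c => (map_add ι _ _).symm,
      hQι, ← vecZ_adj, ← map_one ι, hι.1.eq_iff]
  have hblk : ∀ g i j, blk i = blk j ↔ blk (act g i) = blk (act g j) := fun g i j => by
    by_cases h : i = j
    · simp [h]
    have h1 := hadd (act g i) (act g j)
    rw [hact, hact, ← Matrix.mulVec_add,
      show Q (g.1.1.mulVec ((vec i).1 + (vec j).1)) = Q ((vec i).1 + (vec j).1) from g.2 _ 0, hadd] at h1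
    simpa [h, (act g).injective.ne h] using h1
  let par : isometryGroup F Q →* ℤˣ := MonoidHom.mk'
    (fun g => if blk (act g 0) = blk 0 then 1 else -1) fun g h => by
      have h1 := hblk g (act h 0) 0
      have key : ∀ a b c d : Bool, (a = d ↔ b = c) →
          (if b = d then (1 : ℤˣ) else -1) = (if c = d then 1 else -1) * (if a = d then 1 else -1) := by decide
      rw [map_mul, Equiv.Perm.mul_apply]
      exact key _ _ _ _ h1
  let Ω := Omega F Q
  have hΩ : ∀ x : Ω, blk (act x.1 0) = blk 0 ∧ Equiv.Perm.sign (act x.1) = 1 := fun x => by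
    refine ⟨?_, ?_⟩
    · have h : par x.1 = 1 := Abelianization.commutator_subset_ker par x.2
      by_contra hne
      rw [MonoidHom.mk'_apply, if_neg hne] at h
      exact absurd h (by decide)
    · exact (Abelianization.commutator_subset_ker (Equiv.Perm.sign.comp act) x.2 :)
  have hpres : ∀ (x : Ω) (i : Fin 6), blk i = false → blk (act x.1 i) = false := fun x i hi => by
    rw [(hblk x.1 i 0).1 (hi.trans rfl), (hΩ x).1]
    rfl
  let f0 : Ω → Fin 3 → Fin 3 := fun x i => ⟨(act x.1 ⟨i.val, by omega⟩).val, by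
    have := hpres x ⟨i.val, by omega⟩ (by simp [blk])
    simpa [blk] using this⟩
  have f0mul : ∀ x y i, f0 (x * y) i = f0 x (f0 y i) := fun x y i => Fin.ext (by simp [f0])
  have f0one : ∀ i, f0 1 i = i := fun i => Fin.ext (by simp [f0])
  let f : Ω →* Equiv.Perm (Fin 3) := MonoidHom.mk' (fun x => ⟨f0 x, f0 x⁻¹,
    fun i => by rw [← f0mul, inv_mul_cancel, f0one], fun i => by rw [← f0mul, mul_inv_cancel, f0one]⟩)
    fun x y => Equiv.ext fun i => f0mul x y i
  have hker : IsPGroup 3 f.ker := fun x => ⟨1, by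
    have h0 : ∀ i : Fin 3, act x.1.1 ⟨i.val, by omega⟩ = ⟨i.val, by omega⟩ := fun i =>
      Fin.ext (congrArg Fin.val (congrArg (fun π : Equiv.Perm (Fin 3) => π i) (show f x.1 = 1 from x.2)) :)
    have h3 : act (x.1.1 * x.1.1 * x.1.1) = 1 := by
      rw [map_mul, map_mul]
      exact perm_six _ (h0 0) (h0 1) (h0 2) (hΩ x.1).2
    refine Subtype.ext (Subtype.ext ?_)
    rw [pow_one, pow_three, ← mul_assoc]
    push_cast
    refine Subtype.ext (Units.ext (Matrix.ext_of_mulVec_single fun c => ?_))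
    obtain ⟨i, j, hij⟩ := vecZ_span c
    have hs : (Pi.single c (1 : F) : Fin 2 ⊕ Fin 2 → F) = (vec i).1 + (vec j).1 := funext fun d => by
      rw [show (Pi.single c (1 : F) : Fin 2 ⊕ Fin 2 → F) d = ι ((Pi.single c 1 : _ → ZMod 2) d) by
        simp [Pi.single_apply, apply_ite ι], hij]
      exact map_add ι _ _
    rw [hs, Matrix.mulVec_add, ← hact, ← hact, h3]
    simp⟩
  have hiso : ∀ M : Matrix (Fin 2 ⊕ Fin 2) (Fin 2 ⊕ Fin 2) (ZMod 2),
      (∀ w, qz (M.mulVec w) = qz w) → M * M = 1 →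
      ∃ g : isometryGroup F Q, ∀ i k, M.mulVec (vecZ i) = vecZ k → act g i = k := by
    intro M hM hMM
    let M' : Matrix (Fin 2 ⊕ Fin 2) (Fin 2 ⊕ Fin 2) F := M.map ι
    have h1 : M' * M' = 1 := by
      rw [← Matrix.map_mul, hMM, Matrix.map_one ι (map_zero _) (map_one _)]
    have hmv : ∀ w, M'.mulVec (fun c => ι (w c)) = fun c => ι (M.mulVec w c) := fun w => funext fun c => by
      simp [M', Matrix.mulVec, dotProduct, map_sum, map_mul]
    refine ⟨⟨⟨M', M', h1, h1⟩, fun u _ => ?_⟩, fun i k hik => hvec.1 (Subtype.ext ?_)⟩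
    · obtain ⟨w, rfl⟩ := hlift u
      show Q (M'.mulVec _) = Q _
      rw [hmv, hQι, hQι, hM]
    · rw [hact]
      show M'.mulVec (fun c => ι (vecZ i c)) = fun c => ι (vecZ k c)
      rw [hmv, hik]
  obtain ⟨σ, hσ⟩ := hiso swapZ swap_iso.1 swap_iso.2
  have htr : ∀ a b c : Fin 3, a ≠ b → a ≠ c → b ≠ c → ∃ x : Ω, f x = Equiv.swap b c := by
    intro a b c hab hac hbc
    obtain ⟨r, hr'⟩ := hiso _ (refl_iso (i1 a)).1 (refl_iso (i1 a)).2
    obtain ⟨⟨haa, hb⟩, hout⟩ := refl_act a b c hab hac hbc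
    obtain ⟨⟨-, hc⟩, -⟩ := refl_act a c b hac hab hbc.symm
    have hrinv : ∀ i k, (reflZ (vecZ (i1 a))).mulVec (vecZ i) = vecZ k → act r⁻¹ k = i := fun i k h => by
      rw [map_inv, Equiv.Perm.inv_eq_iff_eq]; exact (hr' i k h).symm
    have hσinv : ∀ i k, swapZ.mulVec (vecZ i) = vecZ k → act σ⁻¹ k = i := fun i k h => by
      rw [map_inv, Equiv.Perm.inv_eq_iff_eq]; exact (hσ i k h).symm
    refine ⟨⟨⁅r, σ⁆, ?_⟩, Equiv.ext fun i => Fin.ext ?_⟩
    · show ⁅r, σ⁆ ∈ commutator _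
      rw [commutator_def]
      exact Subgroup.commutator_mem_commutator (Subgroup.mem_top _) (Subgroup.mem_top _)
    show (act ⁅r, σ⁆ (i1 i)).val = _
    simp only [commutatorElement_def, map_mul, Equiv.Perm.mul_apply]
    rw [hσinv _ _ (swap_act i).2, hrinv _ _ (hout i), hσ _ _ (swap_act i).2]
    have : i = a ∨ i = b ∨ i = c := three_cases a b c i hab hac hbc
    rcases this with rfl | rfl | rfl
    · rw [hr' _ _ haa, Equiv.swap_apply_of_ne_of_ne hab hac]; rfl
    · rw [hr' _ _ hb, Equiv.swap_apply_left]; rfl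
    · rw [hr' _ _ hc, Equiv.swap_apply_right]; rfl
  have hsurj : Function.Surjective f := by
    rw [← MonoidHom.range_eq_top]
    refine top_le_iff.1 ?_
    rw [← Equiv.Perm.closure_isSwap, Subgroup.closure_le]
    rintro π ⟨b, c, hbc, rfl⟩
    obtain ⟨a, hab, hac⟩ := third b c hbc
    exact htr a b c hab hac hbc
  have hcen : Subgroup.center Ω ≤ f.ker := fun z hz => by
    refine center_three (f z) fun ρ => ?_
    obtain ⟨y, rfl⟩ := hsurj ρ
    rw [← map_mul, ← map_mul, Subgroup.mem_center_iff.1 hz y]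
  refine exists_char (QuotientGroup.lift _ f hcen)
    (fun π => (hsurj π).elim fun x hx => ⟨QuotientGroup.mk x, hx⟩) ?_
  rw [QuotientGroup.ker_lift]
  exact hker.map _

end Cfsg.Agent.Lib.Classical.BN.PlusFourTwo
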